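import Mathlib

/-!
A Baer-Suzuki theorem for unipotent linear groups: if a set `X` of invertible linear maps of a
finite-dimensional space is closed under inversion and under conjugation by its members, and any
two members generate a unipotent group, then `X` generates a unipotent group.
-/
set_option autoImplicit false

open scoped Pointwise

namespace Cfsg.Agent.UnipBS

section

variable {k : Type*} [Field k] {M : Type*} [AddCommGroup M] [Module k M]

local notation "GLM" => LinearMap.GeneralLinearGroup k M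
local notation "EndM" => Module.End k M

/-- The span of the `h - 1`, `h` in `H`. -/
def spanOf (H : Subgroup GLM) : Submodule k EndM :=
  Submodule.span k ((fun g : GLM => (g : EndM) - 1) '' (H : Set GLM))

/-- Unipotence, in the form: some power of the span vanishes. -/
def Unip (H : Subgroup GLM) : Prop := ∃ n : ℕ, (spanOf H) ^ n = ⊥

lemma mem_spanOf {H : Subgroup GLM} {g : GLM} (hg : g ∈ H) : (g : EndM) - 1 ∈ spanOf H :=
  Submodule.subset_span ⟨g, hg, rfl⟩

lemma spanOf_mono {H K : Subgroup GLM} (h : H ≤ K) : spanOf H ≤ spanOf K :=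
  Submodule.span_mono (Set.image_mono h)

lemma Unip.mono {H K : Subgroup GLM} (hK : Unip K) (h : H ≤ K) : Unip H := by
  obtain ⟨n, hn⟩ := hK
  exact ⟨n, le_bot_iff.mp (hn ▸ pow_le_pow_left' (spanOf_mono h) n)⟩

lemma spanOf_mul (H : Subgroup GLM) : spanOf H * spanOf H ≤ spanOf H := by
  unfold spanOf
  rw [Submodule.span_mul_span, Submodule.span_le]
  rintro _ ⟨_, ⟨a, ha, rfl⟩, _, ⟨b, hb, rfl⟩, rfl⟩
  have e : ((a : EndM) - 1) * ((b : EndM) - 1)
      = (((a * b : GLM) : EndM) - 1) - ((a : EndM) - 1) - ((b : EndM) - 1) := by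
    rw [Units.val_mul]; noncomm_ring
  show ((a : EndM) - 1) * ((b : EndM) - 1) ∈ _
  rw [e]
  refine Submodule.sub_mem _ (Submodule.sub_mem _ ?_ ?_) ?_ <;> refine Submodule.subset_span ?_
  · exact ⟨_, mul_mem ha hb, rfl⟩
  · exact ⟨_, ha, rfl⟩
  · exact ⟨_, hb, rfl⟩

/-- The unipotent group `1 + L` of a nilpotent subalgebra `L`. -/
def oneAdd (L : Submodule k EndM) (hm : L * L ≤ L) (n : ℕ) (hn : L ^ n = ⊥) : Subgroup GLM where
  carrier := {g | (g : EndM) - 1 ∈ L}
  one_mem' := by simp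
  mul_mem' := by
    intro a b ha hb
    have e : ((a * b : GLM) : EndM) - 1
        = ((a : EndM) - 1) * ((b : EndM) - 1) + ((a : EndM) - 1) + ((b : EndM) - 1) := by
      rw [Units.val_mul]; noncomm_ring
    show ((a * b : GLM) : EndM) - 1 ∈ L
    rw [e]
    exact L.add_mem (L.add_mem (hm (Submodule.mul_mem_mul ha hb)) ha) hb
  inv_mem' := by
    intro a ha
    show ((a⁻¹ : GLM) : EndM) - 1 ∈ L
    set c : EndM := 1 - (a : EndM) with hc
    have hcL : c ∈ L := by rw [hc, ← neg_sub]; exact L.neg_mem ha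
    have hcn : c ^ n = 0 := by
      have := Submodule.pow_mem_pow L hcL n
      rwa [hn, Submodule.mem_bot] at this
    have hinv : ((a⁻¹ : GLM) : EndM) = ∑ i ∈ Finset.range n, c ^ i := by
      have h1 : (∑ i ∈ Finset.range n, c ^ i) * (a : EndM) = 1 := by
        have := geom_sum_mul_neg c n
        rw [hcn, sub_zero] at this
        rwa [hc, sub_sub_cancel, ← hc] at this
      calc ((a⁻¹ : GLM) : EndM)
          = ((∑ i ∈ Finset.range n, c ^ i) * (a : EndM)) * ((a⁻¹ : GLM) : EndM) := by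
            rw [h1, one_mul]
        _ = _ := by rw [mul_assoc, Units.mul_inv, mul_one]
    have hpow : ∀ i, c ^ (i + 1) ∈ L := by
      intro i
      induction i with
      | zero => simpa using hcL
      | succ i ih => rw [pow_succ]; exact hm (Submodule.mul_mem_mul ih hcL)
    rw [hinv]
    cases n with
    | zero =>
      have h01 : (1 : EndM) = 0 := by simpa using hcn
      simp [h01]
    | succ m =>
      rw [Finset.sum_range_succ', pow_zero, add_sub_cancel_right]
      exact L.sum_mem fun i _ => hpow i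

lemma spanOf_le {H : Subgroup GLM} {L : Submodule k EndM}
    (h : ∀ g ∈ H, (g : EndM) - 1 ∈ L) : spanOf H ≤ L :=
  Submodule.span_le.mpr (by rintro _ ⟨g, hg, rfl⟩; exact h g hg)

lemma closure_span_le {Y : Set GLM} {L : Submodule k EndM} (hm : L * L ≤ L) (n : ℕ)
    (hn : L ^ n = ⊥) (hY : ∀ y ∈ Y, (y : EndM) - 1 ∈ L) :
    spanOf (Subgroup.closure Y) ≤ L :=
  spanOf_le fun _ hg => (Subgroup.closure_le (oneAdd L hm n hn)).mpr hY hg

/-- A product of unipotent groups, one normalizing the other, is unipotent. -/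
lemma Unip.sup {H K : Subgroup GLM} (hH : Unip H) (hK : Unip K)
    (hnorm : K ≤ Subgroup.normalizer (H : Set GLM)) : Unip (H ⊔ K) := by
  obtain ⟨n, hn⟩ := hH
  obtain ⟨m, hm⟩ := hK
  set LH := spanOf H with hLH
  set LK := spanOf K with hLK
  set A : Submodule k EndM := 1 ⊔ LK with hA
  set I : Submodule k EndM := LH * A with hI
  have hA1 : (1 : Submodule k EndM) ≤ A := le_sup_left
  have hKA : LK ≤ A := le_sup_right
  have hAA : A * A ≤ A := by
    rw [hA, Submodule.sup_mul, Submodule.mul_sup, Submodule.mul_sup, one_mul, one_mul, mul_one]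
    exact sup_le (sup_le le_sup_left le_sup_right)
      (sup_le le_sup_right ((spanOf_mul K).trans le_sup_right))
  have hKH : LK * LH ≤ I := by
    rw [hLK, hLH]; unfold spanOf
    rw [Submodule.span_mul_span, Submodule.span_le]
    rintro _ ⟨_, ⟨a, ha, rfl⟩, _, ⟨b, hb, rfl⟩, rfl⟩
    have hb' : a * b * a⁻¹ ∈ H := (Subgroup.mem_normalizer_iff.mp (hnorm ha) b).mp hb
    have e : ((a : EndM) - 1) * ((b : EndM) - 1)
        = (((a * b * a⁻¹ : GLM) : EndM) - 1) * (a : EndM) - ((b : EndM) - 1) * 1 := by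
      have h1 : ((a * b * a⁻¹ : GLM) : EndM) * (a : EndM) = (a : EndM) * (b : EndM) := by
        rw [← Units.val_mul, inv_mul_cancel_right, Units.val_mul]
      rw [sub_mul ((a * b * a⁻¹ : GLM) : EndM), h1]
      noncomm_ring
    show ((a : EndM) - 1) * ((b : EndM) - 1) ∈ I
    rw [e]
    refine I.sub_mem (Submodule.mul_mem_mul (mem_spanOf hb') ?_)
      (Submodule.mul_mem_mul (mem_spanOf hb) (hA1 (Submodule.one_le.mp le_rfl)))
    have : (a : EndM) = 1 + ((a : EndM) - 1) := by abel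
    rw [this]
    exact A.add_mem (hA1 (Submodule.one_le.mp le_rfl)) (hKA (mem_spanOf ha))
  have hAH : A * LH ≤ I := by
    rw [hA, Submodule.sup_mul, one_mul]
    refine sup_le ?_ hKH
    calc LH = LH * 1 := (mul_one _).symm
      _ ≤ I := mul_le_mul' le_rfl hA1
  have hAI : A * I ≤ I := by
    calc A * I = (A * LH) * A := by rw [hI, mul_assoc]
      _ ≤ LH * A * A := mul_le_mul' hAH le_rfl
      _ ≤ I := by rw [mul_assoc]; exact mul_le_mul' le_rfl hAA
  have hII : I * I ≤ I := by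
    calc I * I = LH * (A * I) := by rw [hI, mul_assoc]
      _ ≤ LH * I := mul_le_mul' le_rfl hAI
      _ = LH * LH * A := by rw [hI, mul_assoc]
      _ ≤ I := mul_le_mul' (spanOf_mul H) le_rfl
  have hIA : I * A ≤ I := by
    rw [hI, mul_assoc]; exact mul_le_mul' le_rfl hAA
  have hIpow : ∀ j, I ^ (j + 1) ≤ LH ^ (j + 1) * A := by
    intro j
    induction j with
    | zero => simp [hI]
    | succ j ih =>
      calc I ^ (j + 1 + 1) = I ^ (j + 1) * I := pow_succ _ _
        _ ≤ LH ^ (j + 1) * A * I := mul_le_mul' ih le_rfl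
        _ = LH ^ (j + 1) * (A * I) := mul_assoc _ _ _
        _ ≤ LH ^ (j + 1) * I := mul_le_mul' le_rfl hAI
        _ = _ := by rw [hI, ← mul_assoc, ← pow_succ]
  have hIn : I ^ (n + 1) = ⊥ := by
    refine le_bot_iff.mp ((hIpow n).trans ?_)
    rw [pow_succ, hn, Submodule.bot_mul, Submodule.bot_mul]
  set L := I ⊔ LK with hL
  have hLL : L * L ≤ L := by
    rw [hL, Submodule.sup_mul, Submodule.mul_sup, Submodule.mul_sup]
    refine sup_le (sup_le (hII.trans le_sup_left) ?_) (sup_le ?_ ((spanOf_mul K).trans le_sup_right))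
    · exact ((mul_le_mul' le_rfl hKA).trans hIA).trans le_sup_left
    · exact ((mul_le_mul' hKA le_rfl).trans hAI).trans le_sup_left
  have hKpow : ∀ j, LK ^ j ≤ A := by
    intro j
    induction j with
    | zero => simpa using hA1
    | succ j ih => rw [pow_succ]; exact (mul_le_mul' ih hKA).trans hAA
  have hLpow : ∀ j, L ^ (j + 1) ≤ I ⊔ LK ^ (j + 1) := by
    intro j
    induction j with
    | zero => simp [hL]
    | succ j ih =>
      calc L ^ (j + 1 + 1) = L ^ (j + 1) * L := pow_succ _ _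
        _ ≤ (I ⊔ LK ^ (j + 1)) * (I ⊔ LK) := mul_le_mul' ih le_rfl
        _ ≤ _ := by
          rw [Submodule.sup_mul, Submodule.mul_sup, Submodule.mul_sup, ← pow_succ]
          refine sup_le (sup_le (hII.trans le_sup_left) ?_) (sup_le ?_ le_sup_right)
          · exact ((mul_le_mul' le_rfl hKA).trans hIA).trans le_sup_left
          · exact ((mul_le_mul' (hKpow _) le_rfl).trans hAI).trans le_sup_left
  have hLnil : L ^ ((m + 1) * (n + 1)) = ⊥ := by
    rw [pow_mul]
    refine le_bot_iff.mp ?_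
    have hLm : L ^ (m + 1) ≤ I := by
      refine (hLpow m).trans (sup_le le_rfl ?_)
      rw [pow_succ, hm, Submodule.bot_mul]; exact bot_le
    exact hIn ▸ pow_le_pow_left' hLm _
  refine ⟨_, le_bot_iff.mp (hLnil ▸ pow_le_pow_left' (spanOf_le ?_) _)⟩
  intro g hg
  refine (sup_le (a := H) (b := K) (c := oneAdd L hLL _ hLnil) ?_ ?_) hg
  · intro h hh
    show (h : EndM) - 1 ∈ L
    have : LH ≤ L := (calc LH = LH * 1 := (mul_one _).symm
      _ ≤ I := mul_le_mul' le_rfl hA1).trans le_sup_left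
    exact this (mem_spanOf hh)
  · intro a ha
    exact (le_sup_right : LK ≤ L) (mem_spanOf ha)

/-- Members of `X` lying in `1 + L`. -/
def members (X : Set GLM) (L : Submodule k EndM) : Set GLM := {x ∈ X | (x : EndM) - 1 ∈ L}

/-- The normalizer descent inside one unipotent group. -/
lemma exists_normalizing {X : Set GLM} (hinv : ∀ x ∈ X, x⁻¹ ∈ X)
    (hconj : ∀ x ∈ X, ∀ y ∈ X, x * y * x⁻¹ ∈ X) {H : Subgroup GLM} (hH : Unip H)
    {Y : Set GLM} (hYX : Y ⊆ X) (hYH : Y ⊆ (H : Set GLM))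
    (hcl : ∀ x ∈ X, x ∈ H → (x : EndM) - 1 ∈ spanOf (Subgroup.closure Y) → x ∈ Y)
    {x : GLM} (hxX : x ∈ X) (hxH : x ∈ H) (hxY : x ∉ Y) :
    ∃ z ∈ X, z ∈ H ∧ z ∉ Y ∧ z ∈ Subgroup.normalizer (Subgroup.closure Y : Set GLM) := by
  obtain ⟨n, hn⟩ := hH
  set L := spanOf H with hL
  set L0 := spanOf (Subgroup.closure Y) with hL0
  have h0 : L0 ≤ L := spanOf_mono ((Subgroup.closure_le H).mpr hYH)
  by_contra hne
  push Not at hne
  have step : ∀ z ∈ X, z ∈ H → z ∉ Y →
      ∃ g y : GLM, (g = z ∨ g = z⁻¹) ∧ y ∈ Y ∧ g * y * g⁻¹ ∉ Y := by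
    intro z hzX hzH hzY
    by_contra h
    push Not at h
    refine hne z hzX hzH hzY (Subgroup.mem_normalizer_iff.mpr fun u => ⟨fun hu => ?_, fun hu => ?_⟩)
    · refine Subgroup.closure_induction (fun y hy => Subgroup.subset_closure (h z y (Or.inl rfl) hy))
        (by simp) (fun a b _ _ ha hb => ?_) (fun a _ ha => ?_) hu
      · simpa [mul_assoc] using mul_mem ha hb
      · simpa [mul_assoc] using inv_mem ha
    · have key : ∀ v ∈ Subgroup.closure Y, z⁻¹ * v * z ∈ Subgroup.closure Y := by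
        intro v hv
        refine Subgroup.closure_induction
          (fun y hy => Subgroup.subset_closure (by simpa using h z⁻¹ y (Or.inr rfl) hy))
          (by simp) (fun a b _ _ ha hb => ?_) (fun a _ ha => ?_) hv
        · simpa [mul_assoc] using mul_mem ha hb
        · simpa [mul_assoc] using inv_mem ha
      simpa [mul_assoc] using key _ hu
  have desc : ∀ j, ∃ z ∈ X, z ∈ H ∧ z ∉ Y ∧ (z : EndM) - 1 ∈ L0 ⊔ L ^ (j + 1) := by
    intro j
    induction j with
    | zero => exact ⟨x, hxX, hxH, hxY, (by simp : L0 ⊔ L ^ 1 = L0 ⊔ L) ▸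
        Submodule.mem_sup_right (mem_spanOf hxH)⟩
    | succ j ih =>
      obtain ⟨z, hzX, hzH, hzY, hz⟩ := ih
      obtain ⟨g, y, hg, hy, hgy⟩ := step z hzX hzH hzY
      have hgX : g ∈ X := by rcases hg with rfl | rfl; exacts [hzX, hinv _ hzX]
      have hgH : g ∈ H := by rcases hg with rfl | rfl; exacts [hzH, H.inv_mem hzH]
      refine ⟨g * y * g⁻¹, hconj _ hgX _ (hYX hy), mul_mem (mul_mem hgH (hYH hy)) (inv_mem hgH),
        hgy, ?_⟩
      set Mj := L0 ⊔ L ^ (j + 1) with hMj
      have hjL : ∀ i, L ^ (i + 1) ≤ L := by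
        intro i
        induction i with
        | zero => simp
        | succ i ih => rw [pow_succ]; exact (mul_le_mul' ih le_rfl).trans (spanOf_mul H)
      have hup : L ^ (j + 2) ≤ L ^ (j + 1) := by
        rw [show j + 2 = j + 1 + 1 by omega, pow_succ, pow_succ, mul_assoc]
        exact mul_le_mul' le_rfl (spanOf_mul H)
      have hl : L0 * L ^ (j + 1) ≤ L ^ (j + 2) := by
        rw [show j + 2 = j + 1 + 1 by omega, pow_succ' L (j + 1)]
        exact mul_le_mul' h0 le_rfl
      have hr : L ^ (j + 1) * L0 ≤ L ^ (j + 2) := by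
        rw [show j + 2 = j + 1 + 1 by omega, pow_succ (L) (j + 1)]
        exact mul_le_mul' le_rfl h0
      have hMM : Mj * Mj ≤ Mj := by
        rw [hMj, Submodule.sup_mul, Submodule.mul_sup, Submodule.mul_sup]
        refine sup_le (sup_le ((spanOf_mul _).trans le_sup_left)
          ((hl.trans hup).trans le_sup_right)) (sup_le ((hr.trans hup).trans le_sup_right) ?_)
        refine le_trans ?_ (hup.trans le_sup_right)
        rw [show j + 2 = j + 1 + 1 by omega, pow_succ (L) (j + 1)]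
        exact mul_le_mul' le_rfl (hjL j)
      have hMn : Mj ^ n = ⊥ :=
        le_bot_iff.mp (hn ▸ pow_le_pow_left' (sup_le h0 (hjL j)) n)
      have hgM : (g : EndM) - 1 ∈ Mj := by
        rcases hg with rfl | rfl
        exacts [hz, (oneAdd Mj hMM n hMn).inv_mem hz]
      have hgiM : ((g⁻¹ : GLM) : EndM) - 1 ∈ Mj := (oneAdd Mj hMM n hMn).inv_mem hgM
      obtain ⟨a, ha, l, hl', hal⟩ := Submodule.mem_sup.mp hgM
      have hb : (y : EndM) - 1 ∈ L0 := mem_spanOf (Subgroup.subset_closure hy)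
      set b := (y : EndM) - 1 with hbdef
      set c := ((g : EndM) - 1) * b - b * ((g : EndM) - 1) with hc
      have hcM : c ∈ L0 ⊔ L ^ (j + 2) := by
        have e : c = (a * b - b * a) + (l * b - b * l) := by rw [hc, ← hal]; noncomm_ring
        rw [e]
        exact Submodule.add_mem _
          (Submodule.mem_sup_left (L0.sub_mem (spanOf_mul _ (Submodule.mul_mem_mul ha hb))
            (spanOf_mul _ (Submodule.mul_mem_mul hb ha))))
          (Submodule.mem_sup_right ((L ^ (j + 2)).sub_mem (hr (Submodule.mul_mem_mul hl' hb))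
            (hl (Submodule.mul_mem_mul hb hl'))))
      have e : ((g * y * g⁻¹ : GLM) : EndM) - 1
          = b + c + c * (((g⁻¹ : GLM) : EndM) - 1) := by
        have e1 : b + c + c * (((g⁻¹ : GLM) : EndM) - 1) = b + c * ((g⁻¹ : GLM) : EndM) := by
          noncomm_ring
        have e2 : c = ((g : EndM) * y - (y : EndM) * g) := by rw [hc, hbdef]; noncomm_ring
        rw [e1, e2, sub_mul, mul_assoc (y : EndM), Units.mul_inv, mul_one, hbdef,
          Units.val_mul, Units.val_mul]
        abel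
      show ((g * y * g⁻¹ : GLM) : EndM) - 1 ∈ _
      rw [e, show j + 1 + 1 = j + 2 by omega]
      refine Submodule.add_mem _ (Submodule.add_mem _ (Submodule.mem_sup_left hb) hcM) ?_
      refine SetLike.le_def.mp ?_ (Submodule.mul_mem_mul hcM hgiM)
      rw [hMj, Submodule.sup_mul, Submodule.mul_sup, Submodule.mul_sup]
      refine sup_le (sup_le ((spanOf_mul _).trans le_sup_left) (hl.trans le_sup_right))
        (sup_le ?_ ?_)
      · refine le_trans ?_ (le_sup_right (a := L0))
        calc L ^ (j + 2) * L0 ≤ L ^ (j + 1) * L0 := mul_le_mul' hup le_rfl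
          _ ≤ _ := hr
      · refine le_trans ?_ (le_sup_right (a := L0))
        calc L ^ (j + 2) * L ^ (j + 1) ≤ L ^ (j + 1) * L := mul_le_mul' hup (hjL j)
          _ = L ^ (j + 2) := by rw [← pow_succ]
  obtain ⟨z, hzX, hzH, hzY, hz⟩ := desc n
  rw [pow_succ, hn, Submodule.bot_mul, sup_bot_eq] at hz
  exact hzY (hcl z hzX hzH hz)

/-- Baer-Suzuki for unipotent linear groups. -/
theorem unip_closure [FiniteDimensional k M] {X : Set GLM} (hinv : ∀ x ∈ X, x⁻¹ ∈ X)
    (hconj : ∀ x ∈ X, ∀ y ∈ X, x * y * x⁻¹ ∈ X)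
    (hpair : ∀ x ∈ X, ∀ y ∈ X, Unip (Subgroup.closure ({x, y} : Set GLM))) :
    Unip (Subgroup.closure X) := by
  classical
  let Sig : Set (Submodule k EndM) :=
    {L | ∃ Y ⊆ X, Unip (Subgroup.closure Y) ∧ L = spanOf (Subgroup.closure Y)}
  have wf : WellFounded (fun L L' : Submodule k EndM => L' < L) := IsWellFounded.wf
  have above : ∀ Y ⊆ X, Unip (Subgroup.closure Y) →
      ∃ L ∈ Sig, spanOf (Subgroup.closure Y) ≤ L ∧ ∀ L' ∈ Sig, L ≤ L' → L' = L := by
    intro Y hY hu
    obtain ⟨L, ⟨hL, hle⟩, hmax⟩ := wf.has_min {L | L ∈ Sig ∧ spanOf (Subgroup.closure Y) ≤ L}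
      ⟨_, ⟨Y, hY, hu, rfl⟩, le_rfl⟩
    refine ⟨L, hL, hle, fun L' hL' hLL' => ?_⟩
    by_contra hne
    exact hmax L' ⟨hL', hle.trans hLL'⟩ (lt_of_le_of_ne hLL' (Ne.symm hne))
  have memU : ∀ L ∈ Sig, Unip (Subgroup.closure (members X L)) ∧
      spanOf (Subgroup.closure (members X L)) = L := by
    rintro L ⟨Y, hY, ⟨n, hn⟩, rfl⟩
    have h1 := closure_span_le (Y := members X (spanOf (Subgroup.closure Y)))
      (spanOf_mul _) n hn (fun y hy => hy.2)
    refine ⟨⟨n, le_bot_iff.mp (hn ▸ pow_le_pow_left' h1 n)⟩, le_antisymm h1 ?_⟩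
    exact spanOf_mono (Subgroup.closure_mono fun y hy =>
      ⟨hY hy, mem_spanOf (Subgroup.subset_closure hy)⟩)
  obtain ⟨L0', hL0', -, hmax0⟩ := above ∅ (Set.empty_subset _) ⟨1, by
    rw [pow_one, Subgroup.closure_empty]
    refine le_bot_iff.mp (spanOf_le ?_)
    intro g hg
    rw [Subgroup.mem_bot.mp hg]; simp⟩
  let Max : Set (Submodule k EndM) := {L ∈ Sig | ∀ L' ∈ Sig, L ≤ L' → L' = L}
  by_cases huniq : ∀ L ∈ Max, L = L0'
  · refine (memU L0' hL0').1.mono (Subgroup.closure_mono fun x hx => ⟨hx, ?_⟩)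
    have hu : Unip (Subgroup.closure ({x} : Set GLM)) :=
      (hpair x hx x hx).mono (Subgroup.closure_mono (by simp))
    obtain ⟨L, hL, hle, hmax⟩ := above {x} (by simpa using hx) hu
    rw [← huniq L ⟨hL, hmax⟩]
    exact hle (mem_spanOf (Subgroup.subset_closure rfl))
  exfalso
  push Not at huniq
  obtain ⟨Lx, hLx, hLxne⟩ := huniq
  let d : Submodule k EndM → Submodule k EndM → ℕ := fun L L' =>
    Module.finrank k (spanOf (Subgroup.closure (members X L ∩ members X L')))
  let D : Set ℕ := {r | ∃ L1 ∈ Max, ∃ L2 ∈ Max, L1 ≠ L2 ∧ r = d L1 L2}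
  have hDfin : D.Finite := by
    refine (Set.finite_Iic (Module.finrank k EndM)).subset ?_
    rintro _ ⟨L1, -, L2, -, -, rfl⟩
    exact Submodule.finrank_le _
  have hDne : D.Nonempty := ⟨_, Lx, hLx, L0', ⟨hL0', hmax0⟩, hLxne, rfl⟩
  obtain ⟨r, ⟨L1, hL1, L2, hL2, hne, rfl⟩, hrmax⟩ := hDfin.exists_maximal hDne
  have hr : ∀ A ∈ Max, ∀ B ∈ Max, A ≠ B → d A B ≤ d L1 L2 := by
    intro A hA B hB hAB
    rcases le_total (d L1 L2) (d A B) with h | h
    · exact hrmax ⟨A, hA, B, hB, hAB, rfl⟩ h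
    · exact h
  set Y := members X L1 ∩ members X L2 with hY
  have hcl : ∀ x ∈ X, (x : EndM) - 1 ∈ spanOf (Subgroup.closure Y) → x ∈ Y := by
    intro x hx hs
    constructor
    · refine ⟨hx, ?_⟩
      rw [← (memU L1 hL1.1).2]
      exact spanOf_mono (Subgroup.closure_mono Set.inter_subset_left) hs
    · refine ⟨hx, ?_⟩
      rw [← (memU L2 hL2.1).2]
      exact spanOf_mono (Subgroup.closure_mono Set.inter_subset_right) hs
  have pick : ∀ A ∈ Max, ∀ B ∈ Max, A ≠ B → members X A ∩ members X B = Y →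
      ∃ z ∈ members X A, z ∉ Y ∧ z ∈ Subgroup.normalizer (Subgroup.closure Y : Set GLM) := by
    intro A hA B hB hAB hYeq
    obtain ⟨x, hx, hxY⟩ : ∃ x ∈ members X A, x ∉ Y := by
      by_contra h
      push Not at h
      refine hAB (hA.2 B hB.1 ?_).symm
      rw [← (memU A hA.1).2, ← (memU B hB.1).2]
      exact spanOf_mono (Subgroup.closure_mono fun x hx => (hYeq.symm ▸ h x hx).2)
    have hsub : Y ⊆ members X A := hYeq ▸ Set.inter_subset_left
    obtain ⟨z, hzX, hzH, hzY, hzN⟩ := exists_normalizing hinv hconj (memU A hA.1).1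
      (Y := Y) (fun y hy => (hsub hy).1)
      (hsub.trans Subgroup.subset_closure) (fun x hx _ => hcl x hx) hx.1
      (Subgroup.subset_closure hx) hxY
    refine ⟨z, ⟨hzX, ?_⟩, hzY, hzN⟩
    rw [← (memU A hA.1).2]
    exact mem_spanOf hzH
  obtain ⟨x, hx1, hxY, hxN⟩ := pick L1 hL1 L2 hL2 hne rfl
  obtain ⟨y, hy2, hyY, hyN⟩ := pick L2 hL2 L1 hL1 hne.symm (Set.inter_comm _ _)
  have hYX : Y ⊆ X := fun u hu => hu.1.1
  have hu3 : Unip (Subgroup.closure (Y ∪ {x, y})) := by
    rw [Subgroup.closure_union]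
    refine ((memU L1 hL1.1).1.mono (Subgroup.closure_mono Set.inter_subset_left)).sup
      (hpair x hx1.1 y hy2.1) ((Subgroup.closure_le _).mpr ?_)
    rintro u (rfl | rfl)
    exacts [hxN, hyN]
  have hsubX : Y ∪ {x, y} ⊆ X := by
    rintro u (hu | rfl | rfl)
    exacts [hYX hu, hx1.1, hy2.1]
  obtain ⟨L3, hL3, hle, hmax3⟩ := above _ hsubX hu3
  have hin : ∀ u ∈ Y ∪ {x, y}, u ∈ members X L3 := fun u hu =>
    ⟨hsubX hu, hle (mem_spanOf (Subgroup.subset_closure hu))⟩
  by_cases h31 : L3 = L1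
  · exact hyY ⟨h31 ▸ hin y (Or.inr (Or.inr rfl)), hy2⟩
  have hlt : d L1 L2 < d L1 L3 := by
    refine Submodule.finrank_lt_finrank_of_lt ((Subgroup.closure_mono ?_ |> spanOf_mono).lt_of_ne ?_)
    · exact fun u hu => ⟨hu.1, hin u (Or.inl hu)⟩
    · intro heq
      refine hxY (hcl x hx1.1 ?_)
      rw [heq]
      exact mem_spanOf (Subgroup.subset_closure ⟨hx1, hin x (Or.inr (Or.inl rfl))⟩)
  exact absurd (hr L1 hL1 L3 ⟨hL3, hmax3⟩ (Ne.symm h31)) (not_le.mpr hlt)

end

end Cfsg.Agent.UnipBS
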